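import Cfsg.Agent.EvenLocal.Qd
import Cfsg.Prelude.Def_TwoFusion
import Mathlib.FieldTheory.Finite.Basic

/-!
Coordinates on a natural `SL₂`-module adapted to a Sylow subgroup.
-/

set_option autoImplicit false
set_option linter.style.haveILetI false

open Matrix
open scoped commutatorElement

namespace Cfsg.Agent.LocalP.NatSL2

theorem charP_of_card {F : Type*} [Field F] [Fintype F] {p n : ℕ} [Fact p.Prime]
    (hF : Fintype.card F = p ^ n) : CharP F p := by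
  obtain ⟨r, hr⟩ := CharP.exists F
  obtain ⟨m, hrp, hm⟩ := FiniteField.card F r
  have h1 : r ∣ p ^ n := hF ▸ hm ▸ dvd_pow_self r m.pos.ne'
  obtain rfl := (Nat.prime_dvd_prime_iff_eq hrp Fact.out).1 (hrp.dvd_of_dvd_pow h1)
  exact hr

variable {G : Type*} [Group G] {F : Type*} [Field F]

/-- Coordinates on `V` in which the Sylow subgroup of `L` is upper unitriangular. -/
structure Coords (p : ℕ) (V L T : Subgroup G) where
  ρ : ↥L →* SpecialLinearGroup (Fin 2) F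
  ψ : Additive ↥V ≃+ (Fin 2 → F)
  bij : Function.Bijective ρ
  act : ∀ (l : ↥L) (v : ↥V), ∃ w : ↥V, (w : G) = (l : G) * (v : G) * (l : G)⁻¹ ∧
    ψ (Additive.ofMul w) = (ρ l : Matrix (Fin 2) (Fin 2) F) *ᵥ ψ (Additive.ofMul v)
  le : L ≤ Subgroup.normalizer (V : Set G)
  leT : T ≤ L
  isP : IsPGroup p ↥T
  mem : ∀ l : ↥L, (l : G) ∈ T ↔ (ρ l : Matrix (Fin 2) (Fin 2) F) *ᵥ ![1, 0] = ![1, 0]

theorem exists_coords [Finite G] [Fintype F] {p : ℕ} [Fact p.Prime] {n : ℕ}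
    (hF : Fintype.card F = p ^ n) {V L : Subgroup G} (hnat : Cfsg.IsNaturalSL2Module F V L)
    (hf : L ⊓ Subgroup.centralizer (V : Set G) = ⊥) (S : Sylow p ↥L) :
    Nonempty (Coords (F := F) p V L ((S : Subgroup ↥L).map L.subtype)) := by
  haveI := charP_of_card (p := p) hF
  obtain ⟨hle, ρ, ψ, hsurj, hker, hact⟩ := hnat
  have hinj : Function.Injective ρ := by
    rw [← MonoidHom.ker_eq_bot_iff, hker, Subgroup.subgroupOf_eq_bot, disjoint_comm, disjoint_iff]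
    exact hf
  obtain ⟨v₀, hv₀, hfix⟩ := EvenLocal.Qd.exists_fixed_vector (p := p)
    ((S : Subgroup ↥L).map ρ) (S.2.map ρ)
  obtain ⟨A, hA⟩ := EvenLocal.Qd.exists_mulVec_eq hv₀
  let M : Matrix (Fin 2) (Fin 2) F := ((A⁻¹ : SpecialLinearGroup (Fin 2) F) : Matrix (Fin 2) (Fin 2) F)
  have hMA : M * (A : Matrix (Fin 2) (Fin 2) F) = 1 := by
    simp only [M]; rw [← Matrix.SpecialLinearGroup.coe_mul, inv_mul_cancel, Matrix.SpecialLinearGroup.coe_one]
  have hAM : (A : Matrix (Fin 2) (Fin 2) F) * M = 1 := by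
    simp only [M]; rw [← Matrix.SpecialLinearGroup.coe_mul, mul_inv_cancel, Matrix.SpecialLinearGroup.coe_one]
  let e : (Fin 2 → F) ≃+ (Fin 2 → F) :=
    { toFun := fun v => M *ᵥ v
      invFun := fun v => (A : Matrix (Fin 2) (Fin 2) F) *ᵥ v
      left_inv := fun v => by simp only; rw [mulVec_mulVec, hAM, one_mulVec]
      right_inv := fun v => by simp only; rw [mulVec_mulVec, hMA, one_mulVec]
      map_add' := fun v w => mulVec_add _ v w }
  let ρ' : ↥L →* SpecialLinearGroup (Fin 2) F := (MulAut.conj A⁻¹).toMonoidHom.comp ρ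
  have hρ' : ∀ l, (ρ' l : Matrix (Fin 2) (Fin 2) F) =
      M * (ρ l : Matrix (Fin 2) (Fin 2) F) * (A : Matrix (Fin 2) (Fin 2) F) := by
    intro l
    show ((A⁻¹ * ρ l * A⁻¹⁻¹ : SpecialLinearGroup (Fin 2) F) : Matrix (Fin 2) (Fin 2) F) = _
    rw [inv_inv, Matrix.SpecialLinearGroup.coe_mul, Matrix.SpecialLinearGroup.coe_mul]
  have hbij : Function.Bijective ρ' := (MulAut.conj A⁻¹).bijective.comp ⟨hinj, hsurj⟩
  refine ⟨⟨ρ', ψ.trans e, hbij, fun l v => ?_, hle, Subgroup.map_subtype_le _, S.2.map _, ?_⟩⟩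
  · obtain ⟨w, hw, hw'⟩ := hact l v
    refine ⟨w, hw, ?_⟩
    show M *ᵥ ψ (Additive.ofMul w) = _ *ᵥ (M *ᵥ ψ (Additive.ofMul v))
    rw [hw', hρ', mulVec_mulVec, mulVec_mulVec]
    simp only [Matrix.mul_assoc]
    rw [hAM, Matrix.mul_one]
  -- the stabilizer of `e₀` is a `p`-group containing the Sylow subgroup
  · let X : Subgroup ↥L :=
      { carrier := {l | (ρ' l : Matrix (Fin 2) (Fin 2) F) *ᵥ ![1, 0] = ![1, 0]}
        one_mem' := by simp
        mul_mem' := fun {a b} ha hb => by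
          simp only [Set.mem_setOf_eq] at ha hb ⊢
          rw [map_mul, Matrix.SpecialLinearGroup.coe_mul, ← mulVec_mulVec, hb, ha]
        inv_mem' := fun {a} ha => by
          simp only [Set.mem_setOf_eq] at ha ⊢
          conv_lhs => rw [← ha]
          rw [mulVec_mulVec, ← Matrix.SpecialLinearGroup.coe_mul, ← map_mul, inv_mul_cancel, map_one,
            Matrix.SpecialLinearGroup.coe_one, one_mulVec] }
    have hXp : IsPGroup p ↥X := by
      rintro ⟨l, hl⟩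
      refine ⟨1, Subtype.ext (hbij.1 (Subtype.ext ?_))⟩
      rw [pow_one, SubmonoidClass.coe_pow, map_pow, OneMemClass.coe_one, map_one]
      have h0 : (ρ' l : Matrix (Fin 2) (Fin 2) F) *ᵥ ![1, 0] = ![1, 0] := hl
      have hd := (ρ' l).2
      rw [det_fin_two] at hd
      have e0 := congrFun h0 0
      have e1 := congrFun h0 1
      simp [mulVec, dotProduct, Fin.sum_univ_two] at e0 e1
      rw [e0, e1, one_mul, mul_zero, sub_zero] at hd
      have hpow : ∀ k : ℕ, ((ρ' l : Matrix (Fin 2) (Fin 2) F)) ^ k =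
          !![1, (k : F) * (ρ' l : Matrix (Fin 2) (Fin 2) F) 0 1; 0, 1] := by
        intro k
        induction k with
        | zero => ext i j; fin_cases i <;> fin_cases j <;> simp
        | succ k ih =>
          rw [pow_succ, ih]
          ext i j
          fin_cases i <;> fin_cases j <;>
            simp [Matrix.mul_apply, Fin.sum_univ_two, e0, e1, hd] <;> ring
      rw [Matrix.SpecialLinearGroup.coe_pow, hpow]
      ext i j
      fin_cases i <;> fin_cases j <;> simp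
    have hSX : (S : Subgroup ↥L) ≤ X := by
      intro s hs
      show (ρ' s : Matrix (Fin 2) (Fin 2) F) *ᵥ ![1, 0] = ![1, 0]
      rw [hρ', ← mulVec_mulVec, hA, ← mulVec_mulVec, hfix _ (Subgroup.mem_map_of_mem ρ hs), ← hA,
        mulVec_mulVec, hMA, one_mulVec]
    have hXS : X = (S : Subgroup ↥L) := S.3 hXp hSX
    intro l
    constructor
    · rintro ⟨s, hs, he⟩
      rw [show l = s from Subtype.ext he.symm]
      exact hSX hs
    · intro hl
      exact ⟨l, hXS.le hl, rfl⟩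

namespace Coords

variable {p : ℕ} {V L T : Subgroup G} (c : Coords (F := F) p V L T)

/-- The coordinate vector of an element of `V`. -/
def vec (v : ↥V) : Fin 2 → F := c.ψ (Additive.ofMul v)

/-- The element of `V` with given coordinates. -/
def ofVec (x : Fin 2 → F) : ↥V := Additive.toMul (c.ψ.symm x)

theorem vec_mk (x : Fin 2 → F) : c.vec (c.ofVec x) = x := c.ψ.apply_symm_apply x

theorem mk_vec (v : ↥V) : c.ofVec (c.vec v) = v := by
  simp [ofVec, vec]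

theorem vec_injective : Function.Injective c.vec := fun a b h => by
  rw [← c.mk_vec a, h, c.mk_vec]

theorem vec_mul (a b : ↥V) : c.vec (a * b) = c.vec a + c.vec b := c.ψ.map_add (Additive.ofMul a) (Additive.ofMul b)

theorem vec_one : c.vec 1 = 0 := c.ψ.map_zero

theorem vec_inv (a : ↥V) : c.vec a⁻¹ = -c.vec a := c.ψ.map_neg (Additive.ofMul a)

include c in
theorem conj_mem (l : ↥L) (v : ↥V) : (l : G) * (v : G) * (l : G)⁻¹ ∈ V :=
  (Subgroup.mem_normalizer_iff.1 (c.le l.2) v).1 v.2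

theorem vec_conj (l : ↥L) (v : ↥V) :
    c.vec ⟨_, c.conj_mem l v⟩ = (c.ρ l : Matrix (Fin 2) (Fin 2) F) *ᵥ c.vec v := by
  obtain ⟨w, hw, hw'⟩ := c.act l v
  rw [show (⟨_, c.conj_mem l v⟩ : ↥V) = w from Subtype.ext hw.symm]
  exact hw'

theorem entries {l : ↥L} (h : (l : G) ∈ T) :
    (c.ρ l : Matrix (Fin 2) (Fin 2) F) 0 0 = 1 ∧ (c.ρ l : Matrix (Fin 2) (Fin 2) F) 1 0 = 0 ∧
      (c.ρ l : Matrix (Fin 2) (Fin 2) F) 1 1 = 1 := by
  have h0 := (c.mem l).1 h
  have hd := (c.ρ l).2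
  rw [det_fin_two] at hd
  have e0 := congrFun h0 0
  have e1 := congrFun h0 1
  simp [mulVec, dotProduct, Fin.sum_univ_two] at e0 e1
  rw [e0, e1, one_mul, mul_zero, sub_zero] at hd
  exact ⟨e0, e1, hd⟩

theorem vec_conj_T {t : G} (ht : t ∈ T) (v : ↥V) :
    c.vec ⟨_, c.conj_mem ⟨t, c.leT ht⟩ v⟩ =
      ![c.vec v 0 + (c.ρ ⟨t, c.leT ht⟩ : Matrix (Fin 2) (Fin 2) F) 0 1 * c.vec v 1, c.vec v 1] := by
  obtain ⟨e0, e1, e2⟩ := c.entries (l := ⟨t, c.leT ht⟩) ht
  rw [c.vec_conj]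
  ext i
  fin_cases i <;> simp [mulVec, dotProduct, Fin.sum_univ_two, e0, e1, e2]

/-- A unitriangular element of `T` with prescribed entry. -/
theorem exists_T (b : F) : ∃ t, ∃ ht : t ∈ T,
    (c.ρ ⟨t, c.leT ht⟩ : Matrix (Fin 2) (Fin 2) F) 0 1 = b := by
  obtain ⟨⟨l, hl⟩, he⟩ := c.bij.2 (EvenLocal.Qd.mat2 1 b 0 1 (by ring))
  have ht : l ∈ T := by
    refine (c.mem ⟨l, hl⟩).2 ?_
    rw [he]
    ext i
    fin_cases i <;> simp [mulVec, dotProduct, Fin.sum_univ_two]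
  exact ⟨l, ht, by rw [show (⟨l, c.leT ht⟩ : ↥L) = ⟨l, hl⟩ from rfl, he]; simp⟩

theorem ne_zero_of_ne_one {t : G} (ht : t ∈ T) (h : t ≠ 1) :
    (c.ρ ⟨t, c.leT ht⟩ : Matrix (Fin 2) (Fin 2) F) 0 1 ≠ 0 := by
  intro h0
  obtain ⟨e0, e1, e2⟩ := c.entries (l := ⟨t, c.leT ht⟩) ht
  refine h (congrArg Subtype.val (c.bij.1 (?_ : c.ρ ⟨t, c.leT ht⟩ = c.ρ 1)))
  rw [map_one]
  apply Subtype.ext
  ext i j
  fin_cases i <;> fin_cases j <;> simp [e0, e1, e2, h0]

theorem commute_iff {t : G} (ht : t ∈ T) (v : ↥V) :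
    t * (v : G) = (v : G) * t ↔
      (c.ρ ⟨t, c.leT ht⟩ : Matrix (Fin 2) (Fin 2) F) 0 1 * c.vec v 1 = 0 := by
  have h := c.vec_conj_T ht v
  rw [← mul_inv_eq_iff_eq_mul]
  constructor
  · intro he
    rw [show (⟨_, c.conj_mem ⟨t, c.leT ht⟩ v⟩ : ↥V) = v from Subtype.ext he] at h
    have := congrFun h 0
    simpa using this
  · intro he
    rw [he, add_zero] at h
    have h2 : c.vec ⟨_, c.conj_mem ⟨t, c.leT ht⟩ v⟩ = c.vec v := by
      rw [h]; ext i; fin_cases i <;> simp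
    exact congrArg Subtype.val (c.vec_injective h2)

theorem mem_C_iff (v : ↥V) :
    (v : G) ∈ Subgroup.centralizer (T : Set G) ↔ c.vec v 1 = 0 := by
  rw [Subgroup.mem_centralizer_iff]
  constructor
  · intro h
    obtain ⟨t, ht, hb⟩ := c.exists_T 1
    simpa [hb] using (c.commute_iff ht v).1 (h t ht)
  · intro h t ht
    exact (c.commute_iff ht v).2 (by rw [h, mul_zero])

include c in
theorem comm_mem {t : G} (ht : t ∈ T) (v : ↥V) : ⁅(v : G), t⁆ ∈ V := by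
  rw [show ⁅(v : G), t⁆ = (v : G) * (t * (v : G)⁻¹ * t⁻¹) by simp [commutatorElement_def, mul_assoc]]
  exact V.mul_mem v.2 (c.conj_mem ⟨t, c.leT ht⟩ v⁻¹)

theorem vec_comm {t : G} (ht : t ∈ T) (v : ↥V) :
    c.vec ⟨_, c.comm_mem ht v⟩ =
      ![-((c.ρ ⟨t, c.leT ht⟩ : Matrix (Fin 2) (Fin 2) F) 0 1 * c.vec v 1), 0] := by
  rw [show (⟨_, c.comm_mem ht v⟩ : ↥V) = v * ⟨_, c.conj_mem ⟨t, c.leT ht⟩ v⁻¹⟩ from
    Subtype.ext (by simp [commutatorElement_def, mul_assoc]), c.vec_mul, c.vec_conj_T ht, c.vec_inv]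
  ext i
  fin_cases i <;> simp

theorem mem_inf_iff {g : G} :
    g ∈ V ⊓ Subgroup.centralizer (T : Set G) ↔ ∃ v : ↥V, (v : G) = g ∧ c.vec v 1 = 0 := by
  constructor
  · rintro ⟨h1, h2⟩
    exact ⟨⟨g, h1⟩, rfl, (c.mem_C_iff ⟨g, h1⟩).1 h2⟩
  · rintro ⟨v, rfl, hv⟩
    exact ⟨v.2, (c.mem_C_iff v).2 hv⟩

end Coords

end Cfsg.Agent.LocalP.NatSL2
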